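import Mathlib

/-!
# An abstract lemma on kernels of order at most two (helper93)
-/

set_option autoImplicit false

namespace Cfsg.Agent.Lib.Helper93.Y5

/-- If `K` has at most `2 |T|` elements and maps onto `T`, and the kernel contains an odd element, every even
element of the kernel is trivial. -/
theorem eq_one_of_ker {G T : Type*} [Group G] [Group T] (K : Subgroup G) (ψ : G →* T) (sgn : G →* ℤˣ)
    (F : ℕ) (hF : 0 < F) (hT : Nat.card T = F) (hfin : Finite K) (hK : Nat.card K ≤ 2 * F)
    (hsurj : ∀ t : T, ∃ k ∈ K, ψ k = t) (z : G) (hzK : z ∈ K) (hz1 : ψ z = 1) (hz2 : sgn z = -1)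
    (g : G) (hgK : g ∈ K) (hg1 : ψ g = 1) (hg2 : sgn g = 1) : g = 1 := by
  classical
  let φ : K →* T := ψ.comp K.subtype
  have hφ : Function.Surjective φ := by
    intro t
    obtain ⟨k, hk, e⟩ := hsurj t
    exact ⟨⟨k, hk⟩, e⟩
  have h1 : Nat.card K = Nat.card (K ⧸ φ.ker) * Nat.card φ.ker :=
    Subgroup.card_eq_card_quotient_mul_card_subgroup _
  have h2 : Nat.card (K ⧸ φ.ker) = F := by
    rw [← hT]
    exact Nat.card_congr (QuotientGroup.quotientKerEquivOfSurjective φ hφ).toEquiv
  rw [h2] at h1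
  have h3 : Nat.card φ.ker ≤ 2 := by
    by_contra hcon
    have : F * 3 ≤ F * Nat.card φ.ker := Nat.mul_le_mul_left _ (by omega)
    omega
  have hfk : Finite φ.ker := inferInstance
  by_contra hne
  let e1 : φ.ker := 1
  let ez : φ.ker := ⟨⟨z, hzK⟩, hz1⟩
  let eg : φ.ker := ⟨⟨g, hgK⟩, hg1⟩
  have d1 : e1 ≠ ez := by
    intro h
    have h' : (1 : G) = z := congrArg (fun x : φ.ker => ((x : K) : G)) h
    rw [← h', map_one] at hz2
    exact absurd hz2 (by decide)
  have d2 : e1 ≠ eg := by
    intro h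
    have h' : (1 : G) = g := congrArg (fun x : φ.ker => ((x : K) : G)) h
    exact hne h'.symm
  have d3 : ez ≠ eg := by
    intro h
    have h' : z = g := congrArg (fun x : φ.ker => ((x : K) : G)) h
    rw [h', hg2] at hz2
    exact absurd hz2 (by decide)
  haveI : Fintype φ.ker := Fintype.ofFinite _
  have hc : ({e1, ez, eg} : Finset φ.ker).card = 3 := by
    rw [Finset.card_insert_of_notMem (by simp [d1, d2]), Finset.card_insert_of_notMem (by simp [d3]),
      Finset.card_singleton]
  have hle : ({e1, ez, eg} : Finset φ.ker).card ≤ Fintype.card φ.ker := Finset.card_le_univ _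
  rw [← Nat.card_eq_fintype_card] at hle
  omega

end Cfsg.Agent.Lib.Helper93.Y5
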