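import Cfsg.Agent.Lib.Helper28.TCProb

set_option autoImplicit false
set_option maxRecDepth 100000

namespace Cfsg.Agent.Lib.Helper93.Y5.Y5PD

open Cfsg.Agent.Lib.Helper28 Cfsg.Spor

/-- the nodes of the diagram Y532: centre d, arms c b a, e f g j k, h i -/
inductive Gen | a | b | c | d | e | f | g | j | h | i | k
  deriving DecidableEq

def lfree : ℕ → FreeGroup Gen
  | 0 => FreeGroup.of .a
  | 1 => FreeGroup.of .b
  | 2 => FreeGroup.of .c
  | 3 => FreeGroup.of .d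
  | 4 => FreeGroup.of .e
  | 5 => FreeGroup.of .f
  | 6 => FreeGroup.of .g
  | 7 => FreeGroup.of .j
  | 8 => FreeGroup.of .h
  | 9 => FreeGroup.of .i
  | _ => FreeGroup.of .k
def inv : ℕ → ℕ := fun x => x
def enc : Gen → ℕ
  | .a => 0
  | .b => 1
  | .c => 2
  | .d => 3
  | .e => 4
  | .f => 5
  | .g => 6
  | .j => 7
  | .h => 8
  | .i => 9
  | .k => 10
def extraE : List WExp := [
  (.pow (.mul (.mul (.mul (.mul (.mul (.mul (.mul (.mul (.g 3) (.g 2)) (.g 1)) (.g 3)) (.g 4)) (.g 5)) (.g 3)) (.g 8)) (.g 9)) 10)]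
def pd : PD Gen where
  edges := [(.a, 3, .b), (.b, 3, .c), (.c, 3, .d), (.d, 3, .e), (.d, 3, .h), (.e, 3, .f), (.f, 3, .g), (.g, 3, .j), (.h, 3, .i), (.j, 3, .k)]
  extra := extraE.map (WExp.value lfree)
  K := 11
  lfree := lfree
  inv := inv
  enc := enc
  nodesL := [.a, .b, .c, .d, .e, .f, .g, .j, .h, .i, .k]
  extraE := extraE
theorem pd_ok : pd.OK where
  extra := rfl
  extraK := by decide +kernel
  enc := by intro g; cases g <;> exact ⟨rfl, by decide⟩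
  nodes1 := by decide
  nodes2 := by decide
  inv := by
    intro x hx
    have hx' : x < 11 := hx
    interval_cases x
    · exact ⟨by decide, Or.inr ⟨rfl, .a, by decide, rfl⟩⟩
    · exact ⟨by decide, Or.inr ⟨rfl, .b, by decide, rfl⟩⟩
    · exact ⟨by decide, Or.inr ⟨rfl, .c, by decide, rfl⟩⟩
    · exact ⟨by decide, Or.inr ⟨rfl, .d, by decide, rfl⟩⟩
    · exact ⟨by decide, Or.inr ⟨rfl, .e, by decide, rfl⟩⟩
    · exact ⟨by decide, Or.inr ⟨rfl, .f, by decide, rfl⟩⟩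
    · exact ⟨by decide, Or.inr ⟨rfl, .g, by decide, rfl⟩⟩
    · exact ⟨by decide, Or.inr ⟨rfl, .j, by decide, rfl⟩⟩
    · exact ⟨by decide, Or.inr ⟨rfl, .h, by decide, rfl⟩⟩
    · exact ⟨by decide, Or.inr ⟨rfl, .i, by decide, rfl⟩⟩
    · exact ⟨by decide, Or.inr ⟨rfl, .k, by decide, rfl⟩⟩

theorem pd_wordsK : ∀ w ∈ pd.words, ∀ y ∈ w, y < pd.K := by decide +kernel

end Cfsg.Agent.Lib.Helper93.Y5.Y5PD
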