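import Cfsg.Agent.Lib.Helper28.TCChain
import Cfsg.Agent.Lib.Helper93.Y5.Y5PD

set_option autoImplicit false
set_option maxRecDepth 100000

namespace Cfsg.Agent.Lib.Helper93.Y5.CL7

open Cfsg.Agent.Lib.Helper28

noncomputable def tabC0 : Tr := .leaf 0x21a1a448
noncomputable def auxC0 : Tr := .leaf 0x6b00260301
noncomputable def tabC1 : Tr := .leaf 0x2b660448
noncomputable def auxC1 : Tr := .leaf 0x6c48000401
noncomputable def tabC2 : Tr := .leaf 0x2b891608
noncomputable def auxC2 : Tr := .leaf 0x6d49250001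
noncomputable def tabC3 : Tr := .leaf 0x2c8da250
noncomputable def auxC3 : Tr := .leaf 0x6e4a270200
noncomputable def tabC4 : Tr := .leaf 0
noncomputable def auxC4 : Tr := .leaf 0
noncomputable def dC : Tr := .leaf 0xc0409080600
noncomputable def tabCols : List Tr := [tabC0, tabC1, tabC2, tabC3, tabC4]
noncomputable def auxCols : List Tr := [auxC0, auxC1, auxC2, auxC3, auxC4]
def pairsC : List ((List ℕ × ℕ × List ℕ) × ℕ) := [
  (([3], 3, []), 3072),
  (([3], 0, [0, 3]), 6145),
  (([3], 1, [1, 3]), 8193),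
  (([2], 2, []), 2048),
  (([2], 0, [0, 2]), 5121),
  (([2], 3, [3, 2, 3, 2]), 9216),
  (([1], 1, []), 1024),
  (([1], 2, [2, 1, 2, 1]), 7168),
  (([1], 3, [3, 1]), 8192),
  (([0], 0, []), 0),
  (([0], 1, [1, 0, 1, 0]), 4096),
  (([0], 2, [2, 0]), 5120),
  (([0], 3, [3, 0]), 6144),
  (([], 4, []), 15360)]
def subL : List ℕ := [0, 1, 2]
noncomputable def D : UB where
  tab := field tabCols 6 63 6 63
  aux := field auxCols 6 63 8 255
  dinfo := field [dC] 6 63 9 511 0
  rb := 3
  RM := 7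
  pb := 5
  PM := 31
  m := 5
  K := 4
  Kall := 5
  pairs := pairsC.map Prod.fst
  isSub := fun x => subL.contains x
  fuel := 64
def ren : ℕ → ℕ
  | 0 => 2
  | 1 => 3
  | 2 => 4
  | 3 => 5
  | _ => 0
def relsL : List (List ℕ) := [
  [0, 0],
  [1, 1],
  [2, 2],
  [3, 3],
  [0, 1, 0, 1, 0, 1],
  [0, 2, 0, 2],
  [0, 3, 0, 3],
  [1, 2, 1, 2, 1, 2],
  [1, 3, 1, 3],
  [2, 3, 2, 3, 2, 3]]
noncomputable def Lk : Link where
  D := D
  ren := ren
  inv := fun x => x
  rels := relsL
  pairsC := pairsC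
  subL := subL
  n := 5
theorem chk_0 : allRange D.checkLabel 0 5 = true := by decide +kernel
theorem check_all : ∀ c < D.m, D.checkLabel c = true := by
  intro c hc
  have hc' : c < 5 := hc
  by_cases h0 : c < 5
  · exact allRange_iff.mp chk_0 c (by omega) (by omega)
  omega
theorem pairs_ok : pairsC.all (pairOK (relsAll relsL (fun x => x) 5) (fun x => x) 4 5) = true := by decide +kernel
theorem relsK_ok : ∀ r ∈ relsAll relsL (fun x => x) 5, ∀ y ∈ r, y < 5 := by decide +kernel
theorem core : Lk.Core (Cfsg.Agent.Lib.Helper93.Y5.Y5PD.pd.words) Cfsg.Agent.Lib.Helper93.Y5.Y5PD.pd.inv Cfsg.Agent.Lib.Helper93.Y5.Y5PD.pd.K [2, 3, 4] where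
  Kall := rfl
  invK := by decide +kernel
  invE := rfl
  relsIn := by decide +kernel
  Dpairs := rfl
  pairs := pairs_ok
  relsK := relsK_ok
  isSub := by
    intro x hx
    have hx' : subL.contains x = true := hx
    show x ∈ subL
    simpa using hx'
  sub := by decide +kernel
  check := check_all
theorem fin_all : allBelow D.finalLabel 5 = true := by decide +kernel
theorem live_count : D.liveCount = 5 := by decide +kernel
theorem h0_ok : D.tg D.K 0 = 0 := by decide +kernel
theorem ok : Lk.OK (Cfsg.Agent.Lib.Helper93.Y5.Y5PD.pd.words) Cfsg.Agent.Lib.Helper93.Y5.Y5PD.pd.inv Cfsg.Agent.Lib.Helper93.Y5.Y5PD.pd.K [2, 3, 4, 5] [2, 3, 4] where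
  toCore := core
  gens := by decide +kernel
  hm := by decide
  h0 := h0_ok
  fin := allBelow_iff.mp fin_all
  count := live_count

end Cfsg.Agent.Lib.Helper93.Y5.CL7

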