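import Cfsg.Agent.Lib.Helper28.TCChain
import Cfsg.Agent.Lib.Helper93.Y5.Y5PD

set_option autoImplicit false
set_option maxRecDepth 100000

namespace Cfsg.Agent.Lib.Helper93.Y5.CL9

open Cfsg.Agent.Lib.Helper28

noncomputable def tabC0 : Tr := .leaf 0x2584
noncomputable def auxC0 : Tr := .leaf 0x2c01
noncomputable def tabC1 : Tr := .leaf 0x38a8
noncomputable def auxC1 : Tr := .leaf 0x3040
noncomputable def tabC2 : Tr := .leaf 0
noncomputable def auxC2 : Tr := .leaf 0
noncomputable def dC : Tr := .leaf 0x400100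
noncomputable def tabCols : List Tr := [tabC0, tabC1, tabC2]
noncomputable def auxCols : List Tr := [auxC0, auxC1, auxC2]
def pairsC : List ((List ℕ × ℕ × List ℕ) × ℕ) := [
  (([1], 1, []), 1024),
  (([0], 0, []), 0),
  (([0], 1, [1, 0, 1, 0]), 2048),
  (([], 2, []), 6144)]
def subL : List ℕ := [0]
noncomputable def D : UB where
  tab := field tabCols 6 63 5 31
  aux := field auxCols 6 63 5 31
  dinfo := field [dC] 6 63 8 255 0
  rb := 2
  RM := 3
  pb := 3
  PM := 7
  m := 3
  K := 2
  Kall := 3
  pairs := pairsC.map Prod.fst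
  isSub := fun x => subL.contains x
  fuel := 64
def ren : ℕ → ℕ
  | 0 => 2
  | 1 => 3
  | _ => 0
def relsL : List (List ℕ) := [
  [0, 0],
  [1, 1],
  [0, 1, 0, 1, 0, 1]]
noncomputable def Lk : Link where
  D := D
  ren := ren
  inv := fun x => x
  rels := relsL
  pairsC := pairsC
  subL := subL
  n := 3
theorem chk_0 : allRange D.checkLabel 0 3 = true := by decide +kernel
theorem check_all : ∀ c < D.m, D.checkLabel c = true := by
  intro c hc
  have hc' : c < 3 := hc
  by_cases h0 : c < 3
  · exact allRange_iff.mp chk_0 c (by omega) (by omega)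
  omega
theorem pairs_ok : pairsC.all (pairOK (relsAll relsL (fun x => x) 3) (fun x => x) 2 3) = true := by decide +kernel
theorem relsK_ok : ∀ r ∈ relsAll relsL (fun x => x) 3, ∀ y ∈ r, y < 3 := by decide +kernel
theorem core : Lk.Core (Cfsg.Agent.Lib.Helper93.Y5.Y5PD.pd.words) Cfsg.Agent.Lib.Helper93.Y5.Y5PD.pd.inv Cfsg.Agent.Lib.Helper93.Y5.Y5PD.pd.K [2] where
  Kall := rfl
  invK := by decide +kernel
  invE := rfl
  relsIn := by decide +kernel
  Dpairs := rfl
  pairs := pairs_ok
  relsK := relsK_ok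
  isSub := by
    intro x hx
    have hx' : subL.contains x = true := hx
    show x ∈ subL
    simpa using hx'
  sub := by decide +kernel
  check := check_all
theorem fin_all : allBelow D.finalLabel 3 = true := by decide +kernel
theorem live_count : D.liveCount = 3 := by decide +kernel
theorem h0_ok : D.tg D.K 0 = 0 := by decide +kernel
theorem ok : Lk.OK (Cfsg.Agent.Lib.Helper93.Y5.Y5PD.pd.words) Cfsg.Agent.Lib.Helper93.Y5.Y5PD.pd.inv Cfsg.Agent.Lib.Helper93.Y5.Y5PD.pd.K [2, 3] [2] where
  toCore := core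
  gens := by decide +kernel
  hm := by decide
  h0 := h0_ok
  fin := allBelow_iff.mp fin_all
  count := live_count

end Cfsg.Agent.Lib.Helper93.Y5.CL9

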