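import Cfsg.Agent.Lib.Helper93.Y5.CL1
import Cfsg.Agent.Lib.Helper93.Y5.CL2
import Cfsg.Agent.Lib.Helper93.Y5.CL3
import Cfsg.Agent.Lib.Helper93.Y5.CL4
import Cfsg.Agent.Lib.Helper93.Y5.CL5
import Cfsg.Agent.Lib.Helper93.Y5.CL6
import Cfsg.Agent.Lib.Helper93.Y5.CL7
import Cfsg.Agent.Lib.Helper93.Y5.CL8
import Cfsg.Agent.Lib.Helper93.Y5.CL9
import Cfsg.Agent.Lib.Helper93.Y5.CL10

set_option autoImplicit false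
set_option maxRecDepth 100000

namespace Cfsg.Agent.Lib.Helper93.Y5.CChain

open Cfsg.Agent.Lib.Helper28

theorem bound_10 {G : Type*} [Group G] (v : ℕ → G) : Finite (Sg v []) ∧ Nat.card (Sg v []) ≤ 1 := by
  rw [Sg_nil]
  exact ⟨inferInstance, by simp⟩

theorem bound_9 {G : Type*} [Group G] (v : ℕ → G) (hW : ∀ w ∈ Cfsg.Agent.Lib.Helper93.Y5.Y5PD.pd.words, evalW v w = 1)
    (hoinv : ∀ y < Cfsg.Agent.Lib.Helper93.Y5.Y5PD.pd.K, v (Cfsg.Agent.Lib.Helper93.Y5.Y5PD.pd.inv y) = (v y)⁻¹) :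
    Finite (Sg v [2]) ∧ Nat.card (Sg v [2]) ≤ 2 * 1 := by
  obtain ⟨f, c⟩ := bound_10 v
  obtain ⟨f', c'⟩ := CL10.ok.card_le v hW hoinv f
  exact ⟨f', le_trans c' (Nat.mul_le_mul_left _ c)⟩

theorem bound_8 {G : Type*} [Group G] (v : ℕ → G) (hW : ∀ w ∈ Cfsg.Agent.Lib.Helper93.Y5.Y5PD.pd.words, evalW v w = 1)
    (hoinv : ∀ y < Cfsg.Agent.Lib.Helper93.Y5.Y5PD.pd.K, v (Cfsg.Agent.Lib.Helper93.Y5.Y5PD.pd.inv y) = (v y)⁻¹) :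
    Finite (Sg v [2, 3]) ∧ Nat.card (Sg v [2, 3]) ≤ 3 * (2 * 1) := by
  obtain ⟨f, c⟩ := bound_9 v hW hoinv
  obtain ⟨f', c'⟩ := CL9.ok.card_le v hW hoinv f
  exact ⟨f', le_trans c' (Nat.mul_le_mul_left _ c)⟩

theorem bound_7 {G : Type*} [Group G] (v : ℕ → G) (hW : ∀ w ∈ Cfsg.Agent.Lib.Helper93.Y5.Y5PD.pd.words, evalW v w = 1)
    (hoinv : ∀ y < Cfsg.Agent.Lib.Helper93.Y5.Y5PD.pd.K, v (Cfsg.Agent.Lib.Helper93.Y5.Y5PD.pd.inv y) = (v y)⁻¹) :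
    Finite (Sg v [2, 3, 4]) ∧ Nat.card (Sg v [2, 3, 4]) ≤ 4 * (3 * (2 * 1)) := by
  obtain ⟨f, c⟩ := bound_8 v hW hoinv
  obtain ⟨f', c'⟩ := CL8.ok.card_le v hW hoinv f
  exact ⟨f', le_trans c' (Nat.mul_le_mul_left _ c)⟩

theorem bound_6 {G : Type*} [Group G] (v : ℕ → G) (hW : ∀ w ∈ Cfsg.Agent.Lib.Helper93.Y5.Y5PD.pd.words, evalW v w = 1)
    (hoinv : ∀ y < Cfsg.Agent.Lib.Helper93.Y5.Y5PD.pd.K, v (Cfsg.Agent.Lib.Helper93.Y5.Y5PD.pd.inv y) = (v y)⁻¹) :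
    Finite (Sg v [2, 3, 4, 5]) ∧ Nat.card (Sg v [2, 3, 4, 5]) ≤ 5 * (4 * (3 * (2 * 1))) := by
  obtain ⟨f, c⟩ := bound_7 v hW hoinv
  obtain ⟨f', c'⟩ := CL7.ok.card_le v hW hoinv f
  exact ⟨f', le_trans c' (Nat.mul_le_mul_left _ c)⟩

theorem bound_5 {G : Type*} [Group G] (v : ℕ → G) (hW : ∀ w ∈ Cfsg.Agent.Lib.Helper93.Y5.Y5PD.pd.words, evalW v w = 1)
    (hoinv : ∀ y < Cfsg.Agent.Lib.Helper93.Y5.Y5PD.pd.K, v (Cfsg.Agent.Lib.Helper93.Y5.Y5PD.pd.inv y) = (v y)⁻¹) :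
    Finite (Sg v [2, 3, 4, 5, 8]) ∧ Nat.card (Sg v [2, 3, 4, 5, 8]) ≤ 16 * (5 * (4 * (3 * (2 * 1)))) := by
  obtain ⟨f, c⟩ := bound_6 v hW hoinv
  obtain ⟨f', c'⟩ := CL6.ok.card_le v hW hoinv f
  exact ⟨f', le_trans c' (Nat.mul_le_mul_left _ c)⟩

theorem bound_4 {G : Type*} [Group G] (v : ℕ → G) (hW : ∀ w ∈ Cfsg.Agent.Lib.Helper93.Y5.Y5PD.pd.words, evalW v w = 1)
    (hoinv : ∀ y < Cfsg.Agent.Lib.Helper93.Y5.Y5PD.pd.K, v (Cfsg.Agent.Lib.Helper93.Y5.Y5PD.pd.inv y) = (v y)⁻¹) :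
    Finite (Sg v [1, 2, 3, 4, 5, 8]) ∧ Nat.card (Sg v [1, 2, 3, 4, 5, 8]) ≤ 27 * (16 * (5 * (4 * (3 * (2 * 1))))) := by
  obtain ⟨f, c⟩ := bound_5 v hW hoinv
  obtain ⟨f', c'⟩ := CL5.ok.card_le v hW hoinv f
  exact ⟨f', le_trans c' (Nat.mul_le_mul_left _ c)⟩

theorem bound_3 {G : Type*} [Group G] (v : ℕ → G) (hW : ∀ w ∈ Cfsg.Agent.Lib.Helper93.Y5.Y5PD.pd.words, evalW v w = 1)
    (hoinv : ∀ y < Cfsg.Agent.Lib.Helper93.Y5.Y5PD.pd.K, v (Cfsg.Agent.Lib.Helper93.Y5.Y5PD.pd.inv y) = (v y)⁻¹) :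
    Finite (Sg v [1, 2, 3, 4, 5, 8, 9]) ∧ Nat.card (Sg v [1, 2, 3, 4, 5, 8, 9]) ≤ 243 * (27 * (16 * (5 * (4 * (3 * (2 * 1)))))) := by
  obtain ⟨f, c⟩ := bound_4 v hW hoinv
  obtain ⟨f', c'⟩ := CL4.ok.card_le v hW hoinv f
  exact ⟨f', le_trans c' (Nat.mul_le_mul_left _ c)⟩

theorem bound_2 {G : Type*} [Group G] (v : ℕ → G) (hW : ∀ w ∈ Cfsg.Agent.Lib.Helper93.Y5.Y5PD.pd.words, evalW v w = 1)
    (hoinv : ∀ y < Cfsg.Agent.Lib.Helper93.Y5.Y5PD.pd.K, v (Cfsg.Agent.Lib.Helper93.Y5.Y5PD.pd.inv y) = (v y)⁻¹) :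
    Finite (Sg v [1, 2, 3, 4, 5, 6, 8, 9]) ∧ Nat.card (Sg v [1, 2, 3, 4, 5, 6, 8, 9]) ≤ 728 * (243 * (27 * (16 * (5 * (4 * (3 * (2 * 1))))))) := by
  obtain ⟨f, c⟩ := bound_3 v hW hoinv
  obtain ⟨f', c'⟩ := CL3.ok.card_le v hW hoinv f
  exact ⟨f', le_trans c' (Nat.mul_le_mul_left _ c)⟩

theorem bound_1 {G : Type*} [Group G] (v : ℕ → G) (hW : ∀ w ∈ Cfsg.Agent.Lib.Helper93.Y5.Y5PD.pd.words, evalW v w = 1)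
    (hoinv : ∀ y < Cfsg.Agent.Lib.Helper93.Y5.Y5PD.pd.K, v (Cfsg.Agent.Lib.Helper93.Y5.Y5PD.pd.inv y) = (v y)⁻¹) :
    Finite (Sg v [0, 1, 2, 3, 4, 5, 6, 8, 9]) ∧ Nat.card (Sg v [0, 1, 2, 3, 4, 5, 6, 8, 9]) ≤ 28160 * (728 * (243 * (27 * (16 * (5 * (4 * (3 * (2 * 1)))))))) := by
  obtain ⟨f, c⟩ := bound_2 v hW hoinv
  obtain ⟨f', c'⟩ := CL2.ok.card_le v hW hoinv f
  exact ⟨f', le_trans c' (Nat.mul_le_mul_left _ c)⟩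

theorem bound_0 {G : Type*} [Group G] (v : ℕ → G) (hW : ∀ w ∈ Cfsg.Agent.Lib.Helper93.Y5.Y5PD.pd.words, evalW v w = 1)
    (hoinv : ∀ y < Cfsg.Agent.Lib.Helper93.Y5.Y5PD.pd.K, v (Cfsg.Agent.Lib.Helper93.Y5.Y5PD.pd.inv y) = (v y)⁻¹) :
    Finite (Sg v [0, 1, 2, 3, 4, 5, 6, 7, 8, 9]) ∧ Nat.card (Sg v [0, 1, 2, 3, 4, 5, 6, 7, 8, 9]) ≤ 31671 * (28160 * (728 * (243 * (27 * (16 * (5 * (4 * (3 * (2 * 1))))))))) := by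
  obtain ⟨f, c⟩ := bound_1 v hW hoinv
  obtain ⟨f', c'⟩ := CL1.ok.card_le v hW hoinv f
  exact ⟨f', le_trans c' (Nat.mul_le_mul_left _ c)⟩

end Cfsg.Agent.Lib.Helper93.Y5.CChain
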