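import Cfsg.Agent.Lib.Helper93.Y5.CL1Data

set_option autoImplicit false
set_option maxRecDepth 100000

namespace Cfsg.Agent.Lib.Helper93.Y5.CL1

open Cfsg.Agent.Lib.Helper28

theorem chk_35 : allRange D.checkLabel 52500 1500 = true := by decide +kernel
theorem chk_36 : allRange D.checkLabel 54000 1500 = true := by decide +kernel
theorem chk_37 : allRange D.checkLabel 55500 1500 = true := by decide +kernel
theorem chk_38 : allRange D.checkLabel 57000 1500 = true := by decide +kernel
theorem chk_39 : allRange D.checkLabel 58500 1500 = true := by decide +kernel
theorem chk_40 : allRange D.checkLabel 60000 1386 = true := by decide +kernel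

end Cfsg.Agent.Lib.Helper93.Y5.CL1
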