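import Cfsg.Agent.Lib.Helper93.Y5.Abs
import Cfsg.Agent.Lib.Helper93.Y5.Z
import Cfsg.Agent.Lib.Helper93.Y5.CChain
import Cfsg.Agent.Lib.Helper28.Fi23n31671Simple
import Cfsg.Agent.Lib.Helper28.TCBase

/-!
# In `Y₅₃₂` with the spider relation the end node of the long arm is a power of an `E₇` Coxeter element (helper93)

Letters: `a b c d e f g j h i k = 0 … 10`; centre `d`, arms `c b a`, `e f g j k`, `h i`.
* `Z.goal_mem`: `k ∈ ⟨a, …, i⟩` (pruned coset enumeration),
* `CChain.bound_0`: `|⟨a, …, i⟩| ≤ 2 |Fi₂₃|`,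
* a homomorphism onto the presented `Fi₂₃` with `k ↦ (d e c h f b g)^9`, and the sign character.
-/

set_option autoImplicit false
set_option maxRecDepth 100000

namespace Cfsg.Agent.Lib.Helper93.Y5

open Cfsg.Agent.Lib.Helper28

/-- the group presented on the diagram `Y₅₃₂` with the spider relation -/
abbrev G5 : Type := PresentedGroup Y5PD.pd.rels

/-- the generators -/
noncomputable def vG (x : ℕ) : G5 := PresentedGroup.mk Y5PD.pd.rels (Y5PD.pd.lfree x)

theorem vG_base : (∀ x < Y5PD.pd.K, vG (Y5PD.pd.inv x) = (vG x)⁻¹) ∧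
    ∀ w ∈ Y5PD.pd.words, evalW vG w = 1 :=
  Y5PD.pd_ok.words_of_sat (PresentedGroup.mk Y5PD.pd.rels) (fun _ hr => PresentedGroup.one_of_mem hr)

/-- homomorphisms out of the presented group -/
theorem exists_hom {Γ : Type*} [Group Γ] (v : ℕ → Γ) (hv : ∀ w ∈ Y5PD.pd.words, evalW v w = 1) :
    ∃ ψ : G5 →* Γ, ∀ x < 11, ψ (vG x) = v x := by
  let f : Y5PD.Gen → Γ := fun g => v (Y5PD.enc g)
  have hl : ∀ x < 11, FreeGroup.lift f (Y5PD.pd.lfree x) = v x := by
    intro x hx
    interval_cases x <;> exact FreeGroup.lift_apply_of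
  have hw : ∀ w ∈ Y5PD.pd.words, evalW (fun x => FreeGroup.lift f (Y5PD.pd.lfree x)) w = 1 := by
    intro w hw
    rw [Prob.evalW_congr (g := v) (fun y hy => hl y (Y5PD.pd_wordsK w hw y hy))]
    exact hv w hw
  have sat := Y5PD.pd_ok.sat_of_words (FreeGroup.lift f) hw
  refine ⟨PresentedGroup.toGroup sat, ?_⟩
  intro x hx
  exact hl x hx

theorem evalW_const {Γ : Type*} [Group Γ] (c : Γ) (w : List ℕ) :
    evalW (fun _ => c) w = c ^ w.length := by
  induction w with
  | nil => simp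
  | cons x w ih => rw [evalW_cons, ih, List.length_cons, pow_succ']

theorem words_even : ∀ w ∈ Y5PD.pd.words, w.length % 2 = 0 := by decide +kernel

/-- the sign character -/
theorem exists_sgn : ∃ s : G5 →* ℤˣ, ∀ x < 11, s (vG x) = -1 :=
  exists_hom (fun _ => (-1 : ℤˣ)) (by
    intro w hw
    rw [evalW_const]
    exact Even.neg_one_pow (Nat.even_iff.mpr (words_even w hw)))

/-- the presented group `Fi₂₃` -/
abbrev T : Type := Fi23n31671.Q.Grp

/-- the `E₇` word `(d e c h f b g)^9` -/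
def u1w : List ℕ := (List.replicate 9 [3, 4, 2, 8, 5, 1, 6]).flatten

/-- the `E₇` word `(a b c d e f h)^9`, a relator of `Fi₂₃` -/
def zw : List ℕ := (List.replicate 9 [0, 1, 2, 3, 4, 5, 8]).flatten

/-- substitution of the last letter -/
def sub (x : ℕ) : List ℕ := if x = 10 then u1w else [x]

/-- images of the generators in `Fi₂₃` -/
noncomputable def vF (x : ℕ) : T := evalW Fi23n31671.Q.val (sub x)

theorem evalW_vF (w : List ℕ) : evalW vF w = evalW Fi23n31671.Q.val (w.flatMap sub) := by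
  induction w with
  | nil => rfl
  | cons x w ih => rw [evalW_cons, ih, List.flatMap_cons, evalW_append]; rfl

theorem chk1 : ∀ w ∈ Y5PD.pd.words, ∀ y ∈ w.flatMap sub, y < 10 := by decide +kernel

theorem chk2 : ∀ w ∈ Y5PD.pd.words, ∀ b ∈ Fi23n31671.levels.map Lev.b,
    ptrace Fi23n31671.L.pt (w.flatMap sub) b = b + 1 := by decide +kernel

theorem chk3 : ∀ b ∈ Fi23n31671.levels.map Lev.b, b < 31671 := by decide +kernel

theorem vF_words : ∀ w ∈ Y5PD.pd.words, evalW vF w = 1 := by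
  intro w hw
  rw [evalW_vF]
  exact Fi23n31671.ok.word_eq_one_of_base Fi23n31671.main.2.2 4089470473293004800 (by norm_num)
    Fi23n31671.main.2.1 Fi23n31671.levels Fi23n31671.chain_ok Fi23n31671.levels_prod chk3 _
    (chk1 w hw) (chk2 w hw)

theorem vF_lt {x : ℕ} (hx : x < 10) : vF x = Fi23n31671.Q.val x := by
  unfold vF sub
  rw [if_neg (by omega)]
  simp

theorem zw_mem : zw ∈ Fi23PD.pd.words := by decide +kernel
theorem zw_lt : ∀ y ∈ zw, y ∈ [0, 1, 2, 3, 4, 5, 6, 7, 8, 9] := by decide +kernel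
theorem u1w_lt : ∀ y ∈ u1w, y ∈ [0, 1, 2, 3, 4, 5, 6, 7, 8, 9] := by decide +kernel

theorem mem10 {y : ℕ} (h : y ∈ [0, 1, 2, 3, 4, 5, 6, 7, 8, 9]) : y < 10 := by
  simp only [List.mem_cons, List.mem_nil_iff, or_false] at h
  omega

theorem evalW_mem_Sg {Γ : Type*} [Group Γ] (v : ℕ → Γ) (Λ : List ℕ) (w : List ℕ) (hw : ∀ y ∈ w, y ∈ Λ) :
    evalW v w ∈ Sg v Λ := by
  induction w with
  | nil => simpa using (Sg v Λ).one_mem
  | cons x w ih =>
    rw [evalW_cons]
    exact (Sg v Λ).mul_mem (Subgroup.subset_closure ⟨x, hw x List.mem_cons_self, rfl⟩)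
      (ih (fun y hy => hw y (List.mem_cons_of_mem _ hy)))

/-- the relation in the presented group -/
theorem key_G : vG 10 = evalW vG u1w := by
  obtain ⟨ψ, hψ⟩ := exists_hom vF vF_words
  obtain ⟨s, hs⟩ := exists_sgn
  obtain ⟨hfin, hcard⟩ := CChain.bound_0 vG vG_base.2 vG_base.1
  have h10 : vG 10 ∈ Sg vG [0, 1, 2, 3, 4, 5, 6, 7, 8, 9] := Z.goal_mem vG vG_base.2 vG_base.1
  have hψw : ∀ w : List ℕ, (∀ y ∈ w, y ∈ [0, 1, 2, 3, 4, 5, 6, 7, 8, 9]) →
      ψ (evalW vG w) = evalW Fi23n31671.Q.val w := by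
    intro w hw
    rw [map_evalW]
    exact Prob.evalW_congr (fun y hy => by
      have := mem10 (hw y hy)
      rw [hψ y (by omega), vF_lt this])
  have hsw : ∀ w : List ℕ, (∀ y ∈ w, y ∈ [0, 1, 2, 3, 4, 5, 6, 7, 8, 9]) →
      s (evalW vG w) = (-1) ^ w.length := by
    intro w hw
    rw [map_evalW, ← evalW_const]
    exact Prob.evalW_congr (fun y hy => by
      have := mem10 (hw y hy)
      exact hs y (by omega))
  have hsurj : ∀ t : T, ∃ k ∈ Sg vG [0, 1, 2, 3, 4, 5, 6, 7, 8, 9], ψ k = t := by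
    have e : (Sg vG [0, 1, 2, 3, 4, 5, 6, 7, 8, 9]).map ψ = ⊤ := by
      rw [← Fi23n31671.ok.Sg_top, Fi23n31671.range_eq]
      unfold Sg
      rw [MonoidHom.map_closure, Set.image_image]
      congr 1
      apply Set.image_congr
      intro x hx
      have := mem10 hx
      rw [hψ x (by omega), vF_lt this]
    intro t
    have ht : t ∈ (Sg vG [0, 1, 2, 3, 4, 5, 6, 7, 8, 9]).map ψ := by rw [e]; trivial
    obtain ⟨k, hk, rfl⟩ := ht
    exact ⟨k, hk, rfl⟩
  have hfinal := eq_one_of_ker (Sg vG [0, 1, 2, 3, 4, 5, 6, 7, 8, 9]) ψ s 4089470473293004800 (by norm_num)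
    Fi23n31671.main.2.1 hfin (hcard.trans (by norm_num)) hsurj
    (evalW vG zw) (evalW_mem_Sg vG _ zw zw_lt)
    (by rw [hψw zw zw_lt]; exact Fi23n31671.ok.val_words zw zw_mem)
    (by rw [hsw zw zw_lt]; decide)
    (vG 10 * (evalW vG u1w)⁻¹)
    ((Sg vG _).mul_mem h10 ((Sg vG _).inv_mem (evalW_mem_Sg vG _ u1w u1w_lt)))
    (by
      rw [map_mul, map_inv, hψw u1w u1w_lt, hψ 10 (by norm_num)]
      have : vF 10 = evalW Fi23n31671.Q.val u1w := rfl
      rw [this, mul_inv_cancel])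
    (by
      rw [map_mul, map_inv, hsw u1w u1w_lt, hs 10 (by norm_num)]
      decide)
  exact mul_inv_eq_one.mp hfinal

/-- the relation in every group with generators satisfying the relations -/
theorem key {X : Type*} [Group X] (v : ℕ → X) (hv : ∀ w ∈ Y5PD.pd.words, evalW v w = 1) :
    v 10 = evalW v u1w := by
  obtain ⟨ψ, hψ⟩ := exists_hom v hv
  have h := congrArg ψ key_G
  rw [hψ 10 (by norm_num), map_evalW] at h
  rw [h]
  exact Prob.evalW_congr (fun y hy => by
    have := mem10 (u1w_lt y hy)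
    exact hψ y (by omega))

end Cfsg.Agent.Lib.Helper93.Y5
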